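import Mathlib

/-!
# A weak form of Ecklund's theorem (package PK1 of the S2536 project)

If `2 ≤ e ≤ d` and no prime `p ≤ d` divides `Nat.choose (d + e) e`, then `d = 4` and `e = 3`.
The proof is elementary (Kummer's theorem in the "no carry" form).
-/

namespace Cfsg.Agent.Lib.Helper83.HT

/-- Kummer, no-carry form: if `p ∤ C(d + e, e)` then adding `d` and `e` in base `p` has no carry. -/
theorem no_carry {p d e : ℕ} (hp : p.Prime) (h : ¬ p ∣ Nat.choose (d + e) e) (a : ℕ) (ha : 1 ≤ a) :
    e % p ^ a + d % p ^ a < p ^ a := by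
  by_contra hcon
  push Not at hcon
  have h0 : (Nat.choose (d + e) e).factorization p = 0 := Nat.factorization_eq_zero_of_not_dvd h
  have hb : Nat.log p (d + e) < max (Nat.log p (d + e) + 1) (a + 1) :=
    lt_of_lt_of_le (Nat.lt_succ_self _) (le_max_left _ _)
  rw [Nat.factorization_choose' hp hb] at h0
  have hmem : a ∈ (Finset.Ico 1 (max (Nat.log p (d + e) + 1) (a + 1))).filter
      (fun i => p ^ i ≤ e % p ^ i + d % p ^ i) := by
    rw [Finset.mem_filter, Finset.mem_Ico]
    exact ⟨⟨ha, lt_of_lt_of_le (Nat.lt_succ_self _) (le_max_right _ _)⟩, hcon⟩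
  have hpos := Finset.card_pos.mpr ⟨a, hmem⟩
  omega

/-- If every prime-power component of `m` divides `X`, then `m ∣ X`. -/
theorem dvd_of_components {m X : ℕ} (hm : m ≠ 0)
    (h : ∀ p : ℕ, p.Prime → p ∣ m → p ^ (m.factorization p) ∣ X) : m ∣ X := by
  rcases Nat.eq_zero_or_pos X with rfl | hX
  · exact dvd_zero _
  · rw [← Nat.factorization_prime_le_iff_dvd hm hX.ne']
    intro p hp
    by_cases hpm : p ∣ m
    · exact (hp.pow_dvd_iff_le_factorization hX.ne').mp (h p hp hpm)
    · rw [Nat.factorization_eq_zero_of_not_dvd hpm]; exact Nat.zero_le _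

/-- If `q ∣ d + k` with `0 < k < q` then `d % q = q - k`. -/
theorem mod_of_dvd_add {q d k : ℕ} (hk0 : 0 < k) (hkq : k < q) (h : q ∣ d + k) : d % q = q - k := by
  have hq : 0 < q := by omega
  have hr : d % q < q := Nat.mod_lt _ hq
  have h1 : q ∣ d % q + k := by
    have h2 : d + k = q * (d / q) + (d % q + k) := by
      have := Nat.div_add_mod d q
      omega
    rw [h2] at h
    exact (Nat.dvd_add_right (dvd_mul_right q (d / q))).mp h
  have h3 : d % q + k = q := Nat.eq_of_dvd_of_lt_two_mul (by omega) h1 (by omega)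
  omega

/-- **Weak Ecklund.** If `2 ≤ e ≤ d` and no prime `p ≤ d` divides `C(d + e, e)`,
then `d = 4` and `e = 3`. -/
theorem nt1 (d e : ℕ) (he2 : 2 ≤ e) (hed : e ≤ d)
    (h : ∀ p : ℕ, p.Prime → p ≤ d → ¬ p ∣ Nat.choose (d + e) e) : d = 4 ∧ e = 3 := by
  -- prime-power components with the no-carry condition
  have comp : ∀ m : ℕ, m ≠ 0 → ∀ p : ℕ, p.Prime → p ∣ m → p ≤ d →
      ∃ q, q = p ^ (m.factorization p) ∧ q ∣ m ∧ 2 ≤ q ∧ e % q + d % q < q := by
    intro m hm p hp hpm hpd
    have h1 : 1 ≤ m.factorization p := hp.factorization_pos_of_dvd hm hpm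
    refine ⟨_, rfl, Nat.ordProj_dvd m p, ?_, no_carry hp (h p hp hpd) _ h1⟩
    calc 2 ≤ p := hp.two_le
      _ = p ^ 1 := (pow_one p).symm
      _ ≤ p ^ (m.factorization p) := Nat.pow_le_pow_right hp.pos h1
  -- (1) `d + e` is prime
  have hn : (d + e).Prime := by
    by_contra hnp
    have hdvd : (d + e) ∣ d := by
      apply dvd_of_components (by omega)
      intro p hp hpm
      have hpd : p ≤ d := by
        obtain ⟨c, hc⟩ := hpm
        have hc2 : 2 ≤ c := by
          by_contra hc'
          push Not at hc'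
          interval_cases c
          · omega
          · rw [mul_one] at hc
            exact hnp (by rw [hc]; exact hp)
        have h2p : p * 2 ≤ p * c := Nat.mul_le_mul_left p hc2
        omega
      obtain ⟨q, hqe, hqm, hq2, hK⟩ := comp (d + e) (by omega) p hp hpm hpd
      rw [← hqe]
      have hmod : (d + e) % q = 0 := Nat.mod_eq_zero_of_dvd hqm
      have hsum : (d % q + e % q) % q = d % q + e % q := Nat.mod_eq_of_lt (by omega)
      rw [Nat.add_mod, hsum] at hmod
      exact Nat.dvd_of_mod_eq_zero (by omega)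
    have := Nat.le_of_dvd (by omega) hdvd
    omega
  -- (2) `d + 1` is prime
  have hd1 : (d + 1).Prime := by
    by_contra hnp
    have hdvd : (d + 1) ∣ e := by
      apply dvd_of_components (by omega)
      intro p hp hpm
      have hpd : p ≤ d := by
        obtain ⟨c, hc⟩ := hpm
        have hc2 : 2 ≤ c := by
          by_contra hc'
          push Not at hc'
          interval_cases c
          · omega
          · rw [mul_one] at hc
            exact hnp (by rw [hc]; exact hp)
        have h2p : p * 2 ≤ p * c := Nat.mul_le_mul_left p hc2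
        have := hp.two_le
        omega
      obtain ⟨q, hqe, hqm, hq2, hK⟩ := comp (d + 1) (by omega) p hp hpm hpd
      rw [← hqe]
      have hmod : d % q = q - 1 := mod_of_dvd_add (by omega) (by omega) hqm
      exact Nat.dvd_of_mod_eq_zero (by omega)
    have := Nat.le_of_dvd (by omega) hdvd
    omega
  -- parities
  have hdeven : d % 2 = 0 := by
    rcases hd1.eq_two_or_odd with h2 | hodd
    · omega
    · omega
  have heodd : e % 2 = 1 := by
    rcases hn.eq_two_or_odd with h2 | hodd
    · omega
    · omega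
  have he3 : 3 ≤ e := by omega
  -- (3) `e + 1 ∣ d`
  have h3 : (e + 1) ∣ d := by
    apply dvd_of_components (by omega)
    intro p hp hpm
    have hpd : p ≤ d := by
      obtain ⟨c, hc⟩ := hpm
      have hc2 : 2 ≤ c := by
        by_contra hc'
        push Not at hc'
        interval_cases c
        · omega
        · rw [mul_one] at hc
          rcases hp.eq_two_or_odd with h2 | hodd
          · omega
          · omega
      have h2p : p * 2 ≤ p * c := Nat.mul_le_mul_left p hc2
      have := hp.two_le
      omega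
    obtain ⟨q, hqe, hqm, hq2, hK⟩ := comp (e + 1) (by omega) p hp hpm hpd
    rw [← hqe]
    have hmod : e % q = q - 1 := mod_of_dvd_add (by omega) (by omega) hqm
    exact Nat.dvd_of_mod_eq_zero (by omega)
  -- (4) `d + 2 ∣ e (e - 1)`
  have h4 : (d + 2) ∣ e * (e - 1) := by
    apply dvd_of_components (by omega)
    intro p hp hpm
    have hpd : p ≤ d := by
      obtain ⟨c, hc⟩ := hpm
      have hc2 : 2 ≤ c := by
        by_contra hc'
        push Not at hc'
        interval_cases c
        · omega
        · rw [mul_one] at hc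
          rcases hp.eq_two_or_odd with h2 | hodd
          · omega
          · omega
      have h2p : p * 2 ≤ p * c := Nat.mul_le_mul_left p hc2
      have := hp.two_le
      omega
    obtain ⟨q, hqe, hqm, hq2, hK⟩ := comp (d + 2) (by omega) p hp hpm hpd
    rw [← hqe]
    rcases (by omega : q = 2 ∨ 3 ≤ q) with hq2' | hq3
    · subst hq2'
      exact dvd_mul_of_dvd_right (Nat.dvd_of_mod_eq_zero (by omega)) _
    · have hmod : d % q = q - 2 := mod_of_dvd_add (by omega) (by omega) hqm
      have he01 : e % q = 0 ∨ e % q = 1 := by omega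
      rcases he01 with h0 | h1
      · exact dvd_mul_of_dvd_left (Nat.dvd_of_mod_eq_zero h0) _
      · apply dvd_mul_of_dvd_right
        have := Nat.div_add_mod e q
        exact ⟨e / q, by omega⟩
  -- (5) `d + e - 1 ∣ e (e - 1)`
  have h5 : (d + e - 1) ∣ e * (e - 1) := by
    apply dvd_of_components (by omega)
    intro p hp hpm
    have hpd : p ≤ d := by
      obtain ⟨c, hc⟩ := hpm
      have hc2 : 2 ≤ c := by
        by_contra hc'
        push Not at hc'
        interval_cases c
        · omega
        · rw [mul_one] at hc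
          rcases hp.eq_two_or_odd with h2 | hodd
          · omega
          · omega
      have h2p : p * 2 ≤ p * c := Nat.mul_le_mul_left p hc2
      have := hp.two_le
      omega
    obtain ⟨q, hqe, hqm, hq2, hK⟩ := comp (d + e - 1) (by omega) p hp hpm hpd
    rw [← hqe]
    have hmod : (d + e) % q = 1 := by
      have h1 : d + e = (d + e - 1) + 1 := by omega
      rw [h1, Nat.add_mod, Nat.mod_eq_zero_of_dvd hqm, zero_add, Nat.mod_mod,
        Nat.mod_eq_of_lt (show 1 < q by omega)]
    have hsum : (d % q + e % q) % q = d % q + e % q := Nat.mod_eq_of_lt (by omega)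
    rw [Nat.add_mod, hsum] at hmod
    have he01 : e % q = 0 ∨ e % q = 1 := by omega
    rcases he01 with h0 | h1
    · exact dvd_mul_of_dvd_left (Nat.dvd_of_mod_eq_zero h0) _
    · apply dvd_mul_of_dvd_right
      have := Nat.div_add_mod e q
      exact ⟨e / q, by omega⟩
  -- (6) the final arithmetic
  obtain ⟨z, hz⟩ := h3
  obtain ⟨w, hw⟩ := h4
  have hpos : 0 < e * (e - 1) := Nat.mul_pos (by omega) (by omega)
  have h5' : d + e - 1 ≤ e * (e - 1) := Nat.le_of_dvd hpos h5
  obtain ⟨f, hf⟩ : ∃ f, e = f + 3 := ⟨e - 3, by omega⟩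
  subst hf
  simp only [show f + 3 - 1 = f + 2 from rfl] at hw h5'
  have hw1 : 1 ≤ w := by
    rcases Nat.eq_zero_or_pos w with hw0 | hwp
    · rw [hw0, mul_zero] at hw
      have : 0 < (f + 3) * (f + 2) := Nat.mul_pos (by omega) (by omega)
      omega
    · exact hwp
  rcases (by omega : w = 1 ∨ 2 ≤ w) with hw1' | hw2
  · rw [hw1', mul_one] at hw
    have hf0 : f = 0 := by omega
    subst hf0
    norm_num at hw
    constructor <;> omega
  · exfalso
    have hdiv : (f + 4) ∣ 2 * (w - 1) := by
      have key : (f + 4) * (z * w) + 2 * (w - 1) = (f + 4) * (f + 1) := by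
        obtain ⟨v, rfl⟩ : ∃ v, w = v + 1 := ⟨w - 1, by omega⟩
        simp only [Nat.add_sub_cancel]
        subst hz
        nlinarith [hw]
      have hd2 : (f + 4) ∣ (f + 4) * (z * w) + 2 * (w - 1) := by
        rw [key]; exact dvd_mul_right _ _
      exact (Nat.dvd_add_right (dvd_mul_right _ _)).mp hd2
    have hle : f + 4 ≤ 2 * (w - 1) := Nat.le_of_dvd (by omega) hdiv
    have hb1 : (d + 2) * (f + 6) ≤ 2 * ((f + 3) * (f + 2)) := by
      have h1 : (d + 2) * (f + 6) ≤ (d + 2) * (2 * w) := Nat.mul_le_mul_left _ (by omega)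
      nlinarith [hw, h1]
    have hb2 : d + 2 < 2 * (f + 2) := by
      by_contra hcon
      push Not at hcon
      have h1 : 2 * (f + 2) * (f + 6) ≤ (d + 2) * (f + 6) := Nat.mul_le_mul_right _ hcon
      nlinarith [h1, hb1]
    have hz1 : z = 1 := by
      rcases Nat.lt_or_ge z 2 with hz2 | hz2
      · interval_cases z
        · omega
        · rfl
      · have h1 : (f + 3 + 1) * 2 ≤ (f + 3 + 1) * z := Nat.mul_le_mul_left _ hz2
        omega
    rw [hz1, mul_one] at hz
    have hd : d = f + 4 := by omega
    subst hd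
    have hf6 : 6 ≤ f := by
      by_contra hcon
      push Not at hcon
      interval_cases f <;> omega
    have h12 : (f + 6) ∣ 12 := by
      obtain ⟨g, rfl⟩ : ∃ g, f = g + 1 := ⟨f - 1, by omega⟩
      have e1 : (g + 1 + 3) * (g + 1 + 2) = (g + 1 + 6) * g + 12 := by ring
      have hd2 : (g + 1 + 6) ∣ (g + 1 + 6) * g + 12 := by
        rw [← e1, hw]; exact ⟨w, by ring⟩
      exact (Nat.dvd_add_right (dvd_mul_right _ _)).mp hd2
    have hf6' : f + 6 ≤ 12 := Nat.le_of_dvd (by norm_num) h12
    have hf : f = 6 := by omega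
    subst hf
    exact h 2 Nat.prime_two (by norm_num) (by decide)

end Cfsg.Agent.Lib.Helper83.HT
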